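import Cfsg.Agent.H665.RIM.Defs
import Cfsg.Agent.H315.Cov.Base
import Cfsg.Agent.S2109

/-!
# `²E₆(2)`: kernels over which there is a faithful linear character (helper102, S4816)

* `cyc_of_inj`: an injective linear character makes the kernel cyclic;
* `nball_of`: `S` with Schur multiplier `C₃ × C₂ × C₂`: `NB 3 2 S` gives `NBall 3 S`.
-/

set_option autoImplicit false

namespace Cfsg.Agent.H102.RIM

open Cfsg Cfsg.Agent.H665.RIM

universe u v

/-- the order of a kernel with a faithful linear character divides the exponent of the multiplier -/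
theorem card_dvd_of_inj {E : Type u} {S : Type v} [Group E] [Finite E] [Group S] {A : Type} [CommGroup A] [Finite A]
    (hA : HasSchurMultiplier S A) {n : ℕ} (hn : ∀ a : A, a ^ n = 1) (π : E →* S)
    (hs : Function.Surjective π) (hc : π.ker ≤ Subgroup.center E) (hp : commutator E = ⊤)
    (l : π.ker →* ℂˣ) (hl : Function.Injective l) : Nat.card π.ker ∣ n := by
  obtain ⟨f, hf⟩ := H487.HasSchurMultiplier.exists_surj_ker hA (τ := π) ⟨hs, hc, by rw [hp]; exact le_top⟩
  have hk : ∀ z : π.ker, z ^ n = 1 := by
    intro z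
    obtain ⟨a, rfl⟩ := hf z
    rw [← map_pow, hn, map_one]
  haveI : IsCyclic π.ker := isCyclic_of_subgroup_isDomain ((Units.coeHom ℂ).comp l)
    (fun a b hab => hl (Units.ext hab))
  rw [← IsCyclic.exponent_eq_card (α := π.ker)]
  exact Monoid.exponent_dvd_of_forall_pow_eq_one hk

theorem nball_of {S : Type u} [Group S] (hA : HasSchurMultiplier S (Multiplicative (ZMod 3 × ZMod 2 × ZMod 2)))
    (h : NB 3 2 S) : NBall 3 S := by
  intro m hm h3 E _ _ π hs hc hp hcard l hl
  have h1 : Nat.card π.ker ∣ 6 := by
    refine card_dvd_of_inj hA ?_ π hs hc hp l hl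
    intro a
    revert a
    decide
  rw [hcard] at h1
  have h2 : m = 2 := by
    have h4 : m ≤ 6 := Nat.le_of_dvd (by norm_num) h1
    interval_cases m <;> omega
  subst h2
  exact h E π hs hc hp hcard l hl

end Cfsg.Agent.H102.RIM
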