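import Cfsg.Agent.R01.PSUSix
import Cfsg.Agent.H655.RIM.St81
import Cfsg.Agent.H905.PCover
import Cfsg.Agent.H95.StemCover
import Cfsg.Agent.S2089
import Cfsg.Agent.S0188
import Cfsg.Agent.Characters.Linear
import Cfsg.Agent.LieClassical.HermPerfect
import Cfsg.Agent.LieClassical.SUBasic

/-!
# S4816: the centralizer `V₄ = U₄(2)` of two opposite transvections of `PSU 6 F 2` (helper102)

* `exists_j` : `V₄` is the image of `SU 4 F 2 →* SU 5 F 2 →* PSU 6 F 2`, injective;
* `sec` : central extensions of `PSU 6 F 2` split over `V₄`;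
* `St` : an irreducible character of `V₄` of full 3-part;
* `theta` : the characters of the preimage of `V₄` over a linear character of the kernel.
-/

set_option autoImplicit false
set_option linter.unusedSectionVars false

namespace Cfsg.Agent.H102.RIM

open Cfsg Subgroup Cfsg.Agent.LieClassical.HermBasic Cfsg.Agent.ClassicalGeometry.UnitTransv
open Cfsg.Agent.SporadicStructure.UnitTwo Cfsg.Agent.R01.PSUSix
open Cfsg.Agent.ClassicalGeometry.UnitAutBasic (tau pr pr_surjective)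
open scoped Matrix

universe u v w

/-- a homomorphism from a perfect group with trivial multiplier lifts to a central extension -/
theorem lift_of_one {Y : Type u} [Group Y] (hY : commutator Y = ⊤) (hM : HasCyclicSchurMultiplier Y 1)
    {A : Type v} [Group A] {X : Type w} [Group X] {ρ : A →* X} (hs : Function.Surjective ρ) (hc : ρ.ker ≤ center A)
    (ι : Y →* X) : ∃ j : Y →* A, ∀ y, ρ (j y) = ι y := by
  let H : Subgroup (Y × A) := (ι.comp (MonoidHom.fst Y A)).eqLocus (ρ.comp (MonoidHom.snd Y A))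
  let τ : H →* Y := (MonoidHom.fst Y A).comp H.subtype
  have hτs : Function.Surjective τ := by
    intro y
    obtain ⟨l, hl⟩ := hs (ι y)
    exact ⟨⟨(y, l), hl.symm⟩, rfl⟩
  have hτc : τ.ker ≤ center H := by
    rintro ⟨⟨x, l⟩, hxl⟩ h
    have hx : x = 1 := h
    subst hx
    have hl : l ∈ ρ.ker := by
      have h1 : ι 1 = ρ l := hxl
      rw [map_one] at h1
      exact h1.symm
    rw [mem_center_iff]
    rintro ⟨⟨y, m⟩, hym⟩
    apply Subtype.ext
    show (y * 1, m * l) = (1 * y, l * m)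
    rw [mul_one, one_mul, mem_center_iff.1 (hc hl) m]
  obtain ⟨hP1, hP2⟩ := H905.PCover.commutator_perfect hY hτs hτc
  let π' : commutator H →* Y := τ.comp (commutator H).subtype
  have hπ's : Function.Surjective π' := by
    intro y
    have : y ∈ (commutator H).map τ := by rw [hP2]; trivial
    obtain ⟨x, hx, rfl⟩ := this
    exact ⟨⟨x, hx⟩, rfl⟩
  have hπ'k : π'.ker ≤ center (commutator H) := by
    intro x hx
    have h1 : (x : H) ∈ center H := hτc hx
    rw [mem_center_iff]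
    intro y
    exact Subtype.ext (mem_center_iff.1 h1 y)
  have hcard := H95.StemCover.card_ker_dvd_cyclic hM hP1 π' hπ's hπ'k
  have hker : π'.ker = ⊥ := Subgroup.card_eq_one.1 (Nat.dvd_one.1 hcard)
  have hinj : Function.Injective π' := (MonoidHom.ker_eq_bot_iff π').1 hker
  let e : commutator H ≃* Y := MulEquiv.ofBijective π' ⟨hinj, hπ's⟩
  refine ⟨(MonoidHom.snd Y A).comp (H.subtype.comp ((commutator H).subtype.comp e.symm.toMonoidHom)), fun x => ?_⟩
  have h3 : ι (((e.symm x : commutator H) : H) : Y × A).1 = ρ (((e.symm x : commutator H) : H) : Y × A).2 :=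
    ((e.symm x : commutator H) : H).2
  have h4 : (((e.symm x : commutator H) : H) : Y × A).1 = x := e.apply_symm_apply x
  show ρ (((e.symm x : commutator H) : H) : Y × A).2 = ι x
  rw [← h3, h4]

/-- the characters over `l` on the preimage of a subgroup over which the extension splits -/
theorem theta_of_sec {A : Type v} [Group A] [Finite A] {X : Type w} [Group X] (ρ : A →* X) (hc : ρ.ker ≤ center A)
    {V : Subgroup X} [Finite V] (σ : V →* A) (hσ : ∀ x : V, ρ (σ x) = x) (l : ρ.ker →* ℂˣ) {χ : V → ℂ}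
    (hχ : IsIrrCharacter V χ) : ∃ θ : ↥(V.comap ρ) → ℂ, IsIrrCharacter ↥(V.comap ρ) θ ∧
      (∀ (z : A) (hz : z ∈ ρ.ker) (hz' : z ∈ V.comap ρ), θ ⟨z, hz'⟩ = θ 1 * l ⟨z, hz⟩) ∧
      charDegree θ = charDegree χ := by
  have hcc : ∀ (z : ρ.ker) (a : A), a * z = z * a := fun z a => mem_center_iff.1 (hc z.2) a
  let f : ρ.ker × V →* ↥(V.comap ρ) :=
    { toFun := fun x => ⟨x.1 * σ x.2, by
        rw [mem_comap, map_mul, hσ, (MonoidHom.mem_ker).1 x.1.2, one_mul]
        exact x.2.2⟩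
      map_one' := Subtype.ext (by simp)
      map_mul' := by
        rintro ⟨a, b⟩ ⟨c, d⟩
        apply Subtype.ext
        show (a * c : A) * σ (b * d) = a * σ b * (c * σ d)
        rw [map_mul]
        calc (a * c : A) * (σ b * σ d) = a * (c * σ b) * σ d := by group
          _ = a * (σ b * c) * σ d := by rw [hcc c (σ b)]
          _ = a * σ b * (c * σ d) := by group }
  have hρf : ∀ x, ρ (f x) = x.2 := by
    rintro ⟨a, b⟩
    show ρ (a * σ b) = b
    rw [map_mul, hσ, (MonoidHom.mem_ker).1 a.2, one_mul]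
  have hfi : Function.Injective f := by
    rw [injective_iff_map_eq_one]
    rintro ⟨a, b⟩ h
    have h1 := hρf (a, b)
    rw [h, Subgroup.coe_one, map_one] at h1
    have hb : b = 1 := Subtype.ext h1.symm
    subst hb
    have h2 : (a : A) * σ 1 = 1 := congrArg Subtype.val h
    rw [map_one, mul_one] at h2
    have ha : a = 1 := Subtype.ext h2
    rw [ha]
    rfl
  have hfs : Function.Surjective f := by
    rintro ⟨y, hy⟩
    have hk : y * (σ ⟨ρ y, hy⟩)⁻¹ ∈ ρ.ker := by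
      rw [MonoidHom.mem_ker, map_mul, map_inv, hσ, mul_inv_cancel]
    refine ⟨(⟨_, hk⟩, ⟨ρ y, hy⟩), Subtype.ext ?_⟩
    show y * (σ ⟨ρ y, hy⟩)⁻¹ * σ ⟨ρ y, hy⟩ = y
    group
  let e : ρ.ker × V ≃* ↥(V.comap ρ) := MulEquiv.ofBijective f ⟨hfi, hfs⟩
  have hl : IsIrrCharacter ρ.ker (fun z => ((l z : ℂˣ) : ℂ)) := Characters.Linear.isIrrCharacter_hom l
  have hψ := S0188.isIrr_outer hl hχ
  have hθ := Characters.Core.isIrr_comp e.symm.toMonoidHom e.symm.surjective hψ
  have h1 : ((fun x : ρ.ker × V => ((l x.1 : ℂˣ) : ℂ) * χ x.2) ∘ e.symm.toMonoidHom) 1 = χ 1 := by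
    show ((l (e.symm 1).1 : ℂˣ) : ℂ) * χ (e.symm 1).2 = _
    rw [map_one]
    show ((l 1 : ℂˣ) : ℂ) * χ 1 = _
    rw [map_one]
    simp
  refine ⟨_, hθ, ?_, ?_⟩
  · intro z hz hz'
    rw [h1]
    have h2 : e.symm ⟨z, hz'⟩ = (⟨z, hz⟩, 1) := by
      apply e.injective
      rw [e.apply_symm_apply]
      apply Subtype.ext
      show z = z * σ 1
      rw [map_one, mul_one]
    show ((l (e.symm ⟨z, hz'⟩).1 : ℂˣ) : ℂ) * χ (e.symm ⟨z, hz'⟩).2 = _
    rw [h2, mul_comm]
  · apply Blocks.Basic.charDegree_of_eq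
    rw [h1, Blocks.Basic.irr_one_eq_charDegree hχ]

section model

variable {F : Type u} [Field F]

/-- `SU₄ → SU₅` -/
def j4 : SU 4 F 2 →* SU 5 F 2 := emb (m := 4) 1

/-- `SU₅ → SU₆` -/
def j56 : SU 5 F 2 →* SU 6 F 2 := emb (m := 5) 1

theorem j56_j4 (g : SU 4 F 2) : j56 (j4 g) = emb (m := 4) 2 g := by
  refine Subtype.ext (Subtype.ext ?_)
  show embMat 1 (embMat 1 _) = embMat 2 _
  ext i j
  fin_cases i <;> fin_cases j <;> rfl

end model

section cent

variable {F : Type u} [Field F] [Fintype F] (hF : Fintype.card F = 2 ^ 2)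
include hF

theorem act_suScalar {n : ℕ} {c : F} (h1 : c ^ n = 1) (h2 : c ^ (2 + 1) = 1) (x : Fin n → F) :
    act (LieClassical.SUBasic.suScalar 2 c h1 h2) x = c • x := by
  rw [act_def, LieClassical.SUBasic.coe_suScalar]
  funext i
  rw [Matrix.mulVec_diagonal]
  rfl

variable {ω : F} (hω : ω ^ 2 + ω + 1 = 0)
include hω

theorem mem_range_of_comm {x : PSU 6 F 2} (h1 : Commute x (tau hF (u0 F 4))) (h2 : Commute x (tau hF (v0 4 ω))) :
    ∃ g : SU 4 F 2, pr 6 F 2 (emb (m := 4) 2 g) = x := by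
  obtain ⟨g, rfl⟩ := pr_surjective x
  have huu := herm_u0 (F := F) hF (m := 4)
  have hvv := herm_v0 (F := F) hF hω (m := 4)
  have hv0 : v0 4 ω ≠ 0 := by
    intro h
    have h3 := herm_v0_u0 (m := 4) hF hω
    rw [h, herm_zero_left] at h3
    exact zero_ne_one h3
  have k1 := conj_tau hF g huu
  rw [h1.eq, mul_inv_cancel_right] at k1
  have k2 := conj_tau hF g hvv
  rw [h2.eq, mul_inv_cancel_right] at k2
  obtain ⟨a, ha, ha'⟩ := (tau_eq_iff hF (by norm_num) huu (by rw [herm_act, huu]) (u0_ne_zero hF)).1 k1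
  obtain ⟨b, hb, hb'⟩ := (tau_eq_iff hF (by norm_num) hvv (by rw [herm_act, hvv]) hv0).1 k2
  have ha3 := pow_three hF ha
  have hab : b = a := by
    have h3 := herm_act g (v0 4 ω) (u0 F 4)
    rw [ha', hb', herm_smul_left, herm_smul_right, herm_v0_u0 hF hω] at h3
    linear_combination a * h3 - b * ha3
  subst hab
  have hc3 : (b⁻¹) ^ (2 + 1) = 1 := by
    rw [inv_pow, show (2 + 1 : ℕ) = 3 from rfl, ha3, inv_one]
  have hc6 : (b⁻¹) ^ 6 = 1 := by
    rw [show (6 : ℕ) = (2 + 1) * 2 from rfl, pow_mul, hc3, one_pow]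
  obtain ⟨g0, hg0⟩ := eq_emb hF hω (g := LieClassical.SUBasic.suScalar 2 b⁻¹ hc6 hc3 * g)
    (by rw [act_mul, ha', act_suScalar hF, smul_smul, inv_mul_cancel₀ hb, one_smul])
    (by rw [act_mul, hb', act_suScalar hF, smul_smul, inv_mul_cancel₀ hb, one_smul])
  refine ⟨g0, ?_⟩
  rw [← hg0, map_mul]
  have h4 : pr 6 F 2 (LieClassical.SUBasic.suScalar 2 b⁻¹ hc6 hc3) = 1 := by
    rw [← MonoidHom.mem_ker]
    show _ ∈ (QuotientGroup.mk' _).ker
    rw [QuotientGroup.ker_mk']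
    exact (LieClassical.SUBasic.mem_center_SU_iff hF (by norm_num) _).2 ⟨_, _, _, rfl⟩
  rw [h4, one_mul]

omit hω in
theorem comm_range (g : SU 4 F 2) (y : Fin 2 → F)
    (hy : hermForm 6 F 2 (Fin.append (0 : Fin 4 → F) y) (Fin.append (0 : Fin 4 → F) y) = 0) :
    Commute (pr 6 F 2 (emb (m := 4) 2 g)) (tau hF (Fin.append (0 : Fin 4 → F) y)) := by
  have h1 := conj_tau hF (emb (m := 4) 2 g) hy
  rw [act_emb, act_zero] at h1
  exact mul_inv_eq_iff_eq_mul.1 h1

omit hω in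
theorem inj_range (hω : ω ^ 2 + ω + 1 = 0) {g : SU 4 F 2} (h : pr 6 F 2 (emb (m := 4) 2 g) = 1) : g = 1 := by
  rw [← MonoidHom.mem_ker] at h
  have h1 : emb (m := 4) 2 g ∈ (QuotientGroup.mk' (Subgroup.center (SU 6 F 2))).ker := h
  rw [QuotientGroup.ker_mk'] at h1
  obtain ⟨c, h2, h3, h4⟩ := (LieClassical.SUBasic.mem_center_SU_iff hF (by norm_num) _).1 h1
  have h5 : act (emb (m := 4) 2 g) (u0 F 4) = u0 F 4 := by
    rw [u0, act_emb, act_zero]
  have h6 : c = 1 := by
    rw [h4, act_suScalar hF] at h5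
    have h7 := congrFun h5 (Fin.natAdd 4 0)
    rw [Pi.smul_apply, u0, Fin.append_right] at h7
    simpa using h7
  apply ext_act
  intro x
  have h7 : act (emb (m := 4) 2 g) (Fin.append x 0) = Fin.append x 0 := by
    rw [h4, act_suScalar hF, h6, one_smul]
  rw [act_emb] at h7
  rw [act_one]
  funext i
  have h8 := congrFun h7 (Fin.castAdd 2 i)
  rwa [Fin.append_left, Fin.append_left] at h8

end cent

section main

variable {F : Type u} [Field F] [Fintype F] (hF : Fintype.card F = 2 ^ 2)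

/-- the centralizer of two transvections -/
abbrev V4 (v w : Fin 6 → F) : Subgroup (PSU 6 F 2) := centralizer ({tau hF v, tau hF w} : Set (PSU 6 F 2))

theorem mem_V4 {v w : Fin 6 → F} {x : PSU 6 F 2} :
    x ∈ V4 hF v w ↔ Commute x (tau hF v) ∧ Commute x (tau hF w) := by
  rw [V4, mem_centralizer_iff]
  constructor
  · intro h
    exact ⟨(h _ (by simp)).symm, (h _ (by simp)).symm⟩
  · rintro ⟨h1, h2⟩ y hy
    rcases hy with rfl | rfl
    · exact h1.symm
    · exact h2.symm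

variable {v w : Fin 6 → F} (hv : hermForm 6 F 2 v v = 0) (hw : hermForm 6 F 2 w w = 0)
  (hvw : hermForm 6 F 2 v w ≠ 0)
include hv hw hvw

/-- `V₄` is the image of `SU 4 F 2 →* SU 5 F 2 →* PSU 6 F 2` -/
theorem exists_j : ∃ j5 : SU 5 F 2 →* PSU 6 F 2, Function.Injective (j5.comp j4) ∧
    (j5.comp j4).range = V4 hF v w := by
  obtain ⟨ω, hω⟩ := exists_omega hF
  have huu := herm_u0 (F := F) hF (m := 4)
  have hvv := herm_v0 (F := F) hF hω (m := 4)
  have hv00 : v0 4 ω ≠ 0 := by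
    intro h
    have h3 := herm_v0_u0 (m := 4) hF hω
    rw [h, herm_zero_left] at h3
    exact zero_ne_one h3
  have hvne : v ≠ 0 := by
    rintro rfl
    exact hvw (herm_zero_left _)
  have hwne : w ≠ 0 := by
    rintro rfl
    exact hvw (herm_zero_right hF _)
  obtain ⟨g, h1, h2⟩ := trans_noncommuting hF (m := 4) (by norm_num) _ (tau_mem hF (u0_ne_zero hF) huu) _
    (tau_mem hF hv00 hvv) _ (tau_mem hF hvne hv) _ (tau_mem hF hwne hw)
    (by
      rw [tau_commute_iff hF (by norm_num) huu hvv (u0_ne_zero hF), herm_u0_v0 hF hω]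
      exact one_ne_zero)
    (by rwa [tau_commute_iff hF (by norm_num) hv hw hvne])
  refine ⟨(MulAut.conj g).toMonoidHom.comp ((pr 6 F 2).comp j56), ?_, ?_⟩
  · rw [injective_iff_map_eq_one]
    intro a ha
    have h3 : g * pr 6 F 2 (j56 (j4 a)) * g⁻¹ = 1 := ha
    rw [j56_j4, mul_inv_eq_one, mul_eq_left] at h3
    exact inj_range hF hω h3
  · ext x
    rw [mem_V4]
    constructor
    · rintro ⟨a, rfl⟩
      have h3 : ((MulAut.conj g).toMonoidHom.comp ((pr 6 F 2).comp j56)).comp j4 a =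
          g * pr 6 F 2 (emb (m := 4) 2 a) * g⁻¹ := by
        rw [← j56_j4]
        rfl
      rw [h3, ← h1, ← h2]
      have h4 := comm_range hF a ![1, 1] huu
      have h5 := comm_range hF a ![ω, ω ^ 2] hvv
      exact ⟨(Commute.conj_iff g).2 h4, (Commute.conj_iff g).2 h5⟩
    · rintro ⟨h3, h4⟩
      rw [← h1] at h3
      rw [← h2] at h4
      have h5 : x = g * (g⁻¹ * x * g) * g⁻¹ := by group
      rw [h5, Commute.conj_iff] at h3 h4
      obtain ⟨a, ha⟩ := mem_range_of_comm hF hω h3 h4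
      refine ⟨a, ?_⟩
      show g * pr 6 F 2 (j56 (j4 a)) * g⁻¹ = x
      rw [j56_j4, ha]
      group

omit hv hw hvw in
include hF in
theorem center_five : Subgroup.center (SU 5 F 2) = ⊥ := by
  rw [eq_bot_iff]
  intro A hA
  obtain ⟨c, hcn, hcq, rfl⟩ := (LieClassical.SUBasic.mem_center_SU_iff hF (by norm_num) A).1 hA
  have hc : c = 1 := by
    have h3 : c ^ 3 = 1 := hcq
    have h5 : c ^ 5 = 1 := hcn
    calc c = c ^ 5 * c := by rw [h5, one_mul]
      _ = (c ^ 3) ^ 2 := by ring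
      _ = 1 := by rw [h3, one_pow]
  subst hc
  rw [Subgroup.mem_bot]
  refine Subtype.ext (Subtype.ext ?_)
  exact Matrix.diagonal_one

omit hv hw hvw in
include hF in
theorem mult_five : HasCyclicSchurMultiplier (SU 5 F 2) 1 := by
  have h1 : HasCyclicSchurMultiplier (PSU 5 F 2) (Nat.gcd 5 (2 + 1)) :=
    S2089.result 5 2 hF (by norm_num) (by norm_num) (by simp)
  exact H487.HasSchurMultiplier.congr_left h1
    ((QuotientGroup.quotientMulEquivOfEq (center_five hF)).trans QuotientGroup.quotientBot)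

/-- **(a)** -/
theorem sec {A : Type v} [Group A] [Finite A] (ρ : A →* PSU 6 F 2) (hs : Function.Surjective ρ)
    (hc : ρ.ker ≤ center A) : ∃ σ : ↥(V4 hF v w) →* A, ∀ x : ↥(V4 hF v w), ρ (σ x) = x := by
  obtain ⟨j5, hj, hr⟩ := exists_j hF hv hw hvw
  obtain ⟨s, hs5⟩ := lift_of_one (LieClassical.HermPerfect.commutator_SU_eq_top hF (by norm_num) (by norm_num))
    (mult_five hF) hs hc j5
  let e : SU 4 F 2 ≃* ↥(V4 hF v w) := (MonoidHom.ofInjective hj).trans (MulEquiv.subgroupCongr hr)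
  refine ⟨(s.comp j4).comp e.symm.toMonoidHom, fun x => ?_⟩
  obtain ⟨g, rfl⟩ := e.surjective x
  show ρ (s (j4 (e.symm (e g)))) = _
  rw [e.symm_apply_apply, hs5]
  rfl

/-- **(b)** `V₄ = U₄(2)` has an irreducible character of degree `81` -/
theorem St81 : ∃ χ : ↥(V4 hF v w) → ℂ, IsIrrCharacter ↥(V4 hF v w) χ ∧ charDegree χ = 81 := by
  obtain ⟨j5, hj, hr⟩ := exists_j hF hv hw hvw
  let e : SU 4 F 2 ≃* ↥(V4 hF v w) := (MonoidHom.ofInjective hj).trans (MulEquiv.subgroupCongr hr)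
  obtain ⟨χ, hχ, h1⟩ := H655.RIM.exists_eightyone (F := F) (by rw [hF]; norm_num)
  refine ⟨χ ∘ e.symm.toMonoidHom, Characters.Core.isIrr_comp e.symm.toMonoidHom e.symm.surjective hχ, ?_⟩
  apply Blocks.Basic.charDegree_of_eq
  show χ (e.symm 1) = _
  rw [map_one, Blocks.Basic.irr_one_eq_charDegree hχ, h1]

theorem card_V4 : Nat.card ↥(V4 hF v w) = 25920 := by
  obtain ⟨j5, hj, hr⟩ := exists_j hF hv hw hvw
  let e : SU 4 F 2 ≃* ↥(V4 hF v w) := (MonoidHom.ofInjective hj).trans (MulEquiv.subgroupCongr hr)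
  rw [← Nat.card_congr e.toEquiv]
  exact H655.RIM.card_su4 (by rw [hF]; norm_num)

theorem St : ∃ χ : ↥(V4 hF v w) → ℂ, IsIrrCharacter ↥(V4 hF v w) χ ∧
    (charDegree χ).factorization 3 = (Nat.card ↥(V4 hF v w)).factorization 3 := by
  obtain ⟨χ, hχ, h1⟩ := St81 hF hv hw hvw
  refine ⟨χ, hχ, ?_⟩
  rw [h1, card_V4 hF hv hw hvw, H655.RIM.fact_num, show (81 : ℕ) = 3 ^ 4 by norm_num,
    Nat.Prime.factorization_pow Nat.prime_three, Finsupp.single_eq_same]

/-- **(c)** -/
theorem theta {A : Type v} [Group A] [Finite A] (ρ : A →* PSU 6 F 2) (hs : Function.Surjective ρ)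
    (hc : ρ.ker ≤ center A) (l : ρ.ker →* ℂˣ) :
    ∃ θ : ↥((V4 hF v w).comap ρ) → ℂ, IsIrrCharacter ↥((V4 hF v w).comap ρ) θ ∧
      (∀ (z : A) (hz : z ∈ ρ.ker) (hz' : z ∈ (V4 hF v w).comap ρ), θ ⟨z, hz'⟩ = θ 1 * l ⟨z, hz⟩) ∧
      (charDegree θ).factorization 3 = (Nat.card ↥(V4 hF v w)).factorization 3 := by
  obtain ⟨σ, hσ⟩ := sec hF hv hw hvw ρ hs hc
  obtain ⟨χ, hχ, h1⟩ := St hF hv hw hvw
  have : Finite ↥(V4 hF v w) := Finite.of_injective σ fun a b hab => by
    apply Subtype.ext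
    rw [← hσ a, ← hσ b, hab]
  obtain ⟨θ, h2, h3, h4⟩ := theta_of_sec ρ hc σ hσ l hχ
  exact ⟨θ, h2, h3, by rw [h4, h1]⟩

end main

end Cfsg.Agent.H102.RIM
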